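import Cfsg.Agent.Lib.Schur.Fi23c.L3.Main
import Cfsg.Agent.Lib.Schur.Fi23c.E1.Main
import Cfsg.Agent.Lib.Schur.Fi23c.E2.Main
import Cfsg.Agent.Lib.Schur.Fi23c.E3.Main
import Cfsg.Agent.Lib.Schur.Fi23c.E4.Main
import Cfsg.Agent.Lib.Schur.Fi23c.E5.Main
import Cfsg.Agent.Lib.Schur.Fi23c.E6.Main
import Cfsg.Agent.Lib.Schur.Fi23c.E7.Main
import Cfsg.Agent.Lib.Schur.Fi23c.E8.Main
import Cfsg.Agent.Lib.Schur.Fi23c.Data
import Cfsg.Agent.Lib.TC.G.Fi23

/-!
# The order of a group generated by nine letters and a central element of order three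

A chain of coset enumerations: subgroup generated by the letters `1, …, 9` and a central element
`ζ` of order three, with the word of the spider equal to `ζ`.
-/

set_option autoImplicit false
set_option maxRecDepth 100000

namespace Cfsg.Agent.Lib.Schur.Fi23c.Bound3

open Cfsg.Agent.Lib.TC.Core Cfsg.Agent.Lib.TC.Enc Cfsg.Agent.Lib.TC.Pres Cfsg.Agent.Lib.TC.Perm
  Cfsg.Agent.Lib.TC.Main Cfsg.Agent.Lib.TC.Chain
open Cfsg.Agent.Lib.Schur.Fi23c.Data

/-- The inverses of the letters: the letters `10` and `11` are inverse to each other. -/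
def inv3 (c : ℕ) : ℕ := if c = 10 then 11 else if c = 11 then 10 else c

/-- The Coxeter relators. -/
def coxW : List (List ℕ) := Cfsg.Agent.Lib.TC.G.Fi23.rels.take 55

/-- The relators. -/
def rels3 : List (List ℕ) :=
  coxW ++ [[10, 10, 10]] ++ ([1, 2, 3, 4, 5, 6, 7, 8, 9].map fun x => [10, x, 11, x]) ++ [spiderW ++ [11]]

section main

variable {Γ : Type*} [Group Γ] (E : ℕ → Γ) (hinv : ∀ c, c ≤ 11 → E (inv3 c) = (E c)⁻¹)
  (hrel : ∀ l ∈ rels3, prodA E l = 1)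

include hinv hrel

theorem st (ls ls' : List ℕ) (inv' : ℕ → ℕ) (rels' subs' : List (List ℕ))
    (wit : ℕ → ℕ × ℕ × Bool) (C : Cert) (m : ℕ) (hls : ∀ c ∈ ls, c ≤ 11) (hk : C.k = ls.length)
    (hchk : chkStage inv3 rels3 ls ls' inv' rels' subs' = true)
    (h1 : chkRelRots C inv' rels' wit = true) (h2 : chkSubRots C subs' = true)
    (hC : Checked C) (hm : C.countRoots C.N = m) :
    Lt E ls' ≤ Lt E ls ∧ Nat.card (Lt E ls) = Nat.card (Lt E ls') * (Lt E ls').relIndex (Lt E ls) ∧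
      (Lt E ls').relIndex (Lt E ls) ≠ 0 ∧ (Lt E ls').relIndex (Lt E ls) ≤ m := by
  have := stage_spec E inv3 rels3 ls ls' inv' rels' subs' wit C
    (fun c hc => hinv c (hls c hc)) hrel hk hchk h1 h2 hC
  rwa [hm] at this

/-- The bound. -/
theorem bound :
    Nat.card (Lt E [1, 2, 3, 4, 5, 6, 7, 8, 9, 10, 11]) ≠ 0 ∧
      Nat.card (Lt E [1, 2, 3, 4, 5, 6, 7, 8, 9, 10, 11]) ≤ 19808719257600 := by
  have b0 := bound_nil E
  have b8 := bound_up (st E hinv hrel _ [] E8.Tab.inv' E8.Tab.rels' E8.Tab.subs' E8.Tab.witT.get E8.Tab.cert 2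
    (by decide) E8.Main.hk (by decide +kernel) E8.Main.h1 E8.Main.h2 E8.Main.hchecked E8.Main.hcount) b0
  have b7 := bound_up (st E hinv hrel _ _ E7.Tab.inv' E7.Tab.rels' E7.Tab.subs' E7.Tab.witT.get E7.Tab.cert 3
    (by decide) E7.Main.hk (by decide +kernel) E7.Main.h1 E7.Main.h2 E7.Main.hchecked E7.Main.hcount) b8
  have b6 := bound_up (st E hinv hrel _ _ E6.Tab.inv' E6.Tab.rels' E6.Tab.subs' E6.Tab.witT.get E6.Tab.cert 4
    (by decide) E6.Main.hk (by decide +kernel) E6.Main.h1 E6.Main.h2 E6.Main.hchecked E6.Main.hcount) b7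
  have b5 := bound_up (st E hinv hrel _ _ E5.Tab.inv' E5.Tab.rels' E5.Tab.subs' E5.Tab.witT.get E5.Tab.cert 5
    (by decide) E5.Main.hk (by decide +kernel) E5.Main.h1 E5.Main.h2 E5.Main.hchecked E5.Main.hcount) b6
  have b4 := bound_up (st E hinv hrel _ _ E4.Tab.inv' E4.Tab.rels' E4.Tab.subs' E4.Tab.witT.get E4.Tab.cert 16
    (by decide) E4.Main.hk (by decide +kernel) E4.Main.h1 E4.Main.h2 E4.Main.hchecked E4.Main.hcount) b5
  have b3 := bound_up (st E hinv hrel _ _ E3.Tab.inv' E3.Tab.rels' E3.Tab.subs' E3.Tab.witT.get E3.Tab.cert 27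
    (by decide) E3.Main.hk (by decide +kernel) E3.Main.h1 E3.Main.h2 E3.Main.hchecked E3.Main.hcount) b4
  have b2 := bound_up (st E hinv hrel _ _ E2.Tab.inv' E2.Tab.rels' E2.Tab.subs' E2.Tab.witT.get E2.Tab.cert 56
    (by decide) E2.Main.hk (by decide +kernel) E2.Main.h1 E2.Main.h2 E2.Main.hchecked E2.Main.hcount) b3
  have b1 := bound_up (st E hinv hrel _ _ E1.Tab.inv' E1.Tab.rels' E1.Tab.subs' E1.Tab.witT.get E1.Tab.cert 240
    (by decide) E1.Main.hk (by decide +kernel) E1.Main.h1 E1.Main.h2 E1.Main.hchecked E1.Main.hcount) b2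
  have bL := bound_up (st E hinv hrel _ _ L3.Tab.inv' L3.Tab.rels' L3.Tab.subs' L3.Tab.witT.get L3.Tab.cert 28431
    (by decide) L3.Main.hk (by decide +kernel) L3.Main.h1 L3.Main.h2 L3.Main.hchecked L3.Main.hcount) b1
  exact ⟨bL.1, bL.2.trans (by norm_num)⟩

end main

end Cfsg.Agent.Lib.Schur.Fi23c.Bound3
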