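import Cfsg.Agent.Lib.Schur.Fi23c.Logic

/-!
# Stem extensions: general reductions

* reduction to kernels of prime order;
* a section shows that the kernel is trivial;
* words in lifts of the letters.
-/

set_option autoImplicit false

namespace Cfsg.Agent.Lib.Schur.Fi23c.Gen

open Cfsg Cfsg.Agent.Lib.Schur.CoxRew Cfsg.Agent.Lib.Schur.Fi23c.Logic Subgroup
open scoped commutatorElement
open Cfsg.Agent.Lib.TC.Core (prodA prodA_nil prodA_cons prodA_append)
open Cfsg.Agent.Lib.TC.Main (map_prodA)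

section words

variable {Γ G : Type*} [Group Γ] [Group G] {σ : Γ →* G} {E : ℕ → G} {X : ℕ → Γ}

theorem prodA_reverse {k : ℕ} (hsq : ∀ c, c < k → X c * X c = 1) (l : List ℕ) (hl : ∀ z ∈ l, z < k) :
    prodA X l.reverse = (prodA X l)⁻¹ := by
  induction l with
  | nil => simp
  | cons z l ih =>
    rw [List.reverse_cons, prodA_append, ih (fun y hy => hl y (by simp [hy])), prodA_cons, prodA_cons,
      prodA_nil, one_mul, mul_inv_rev]
    congr 1
    exact eq_inv_of_mul_eq_one_left (hsq z (hl z (by simp)))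

theorem prodA_const (a : Γ) (l : List ℕ) : prodA (fun _ => a) l = a ^ l.length := by
  induction l with
  | nil => simp
  | cons z l ih =>
    rw [prodA_cons, ih, List.length_cons, pow_succ]

theorem prodA_congr {X' : ℕ → Γ} (l : List ℕ) (h : ∀ z ∈ l, X z = X' z) : prodA X l = prodA X' l := by
  induction l with
  | nil => simp
  | cons z l ih =>
    rw [prodA_cons, prodA_cons, ih (fun y hy => h y (by simp [hy])), h z (by simp)]

theorem CoxLift.rel (h : CoxLift σ E X) : CoxRew.Rel 10 adj X 1 :=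
  ⟨fun g => by simp, h.hsq, h.hb, h.hc, fun x y hx hy => adj_symm x hx y hy⟩

/-- A word of the Coxeter relations. -/
def isCox : List ℕ → Bool
  | [a, b] => a == b && decide (a < 10)
  | [a, b, c, d] => a == c && b == d && decide (a < 10) && decide (b < 10) && (a != b) && !adj a b
  | [a, b, c, d, e, f] => a == c && a == e && b == d && b == f && decide (a < 10) && decide (b < 10) && adj a b
  | _ => false

theorem isCox_lt {l : List ℕ} (hl : isCox l = true) : ∀ z ∈ l, z < 10 := by
  match l, hl with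
  | [a, b], hl =>
    simp only [isCox, Bool.and_eq_true, beq_iff_eq, decide_eq_true_eq] at hl
    obtain ⟨rfl, h⟩ := hl
    simpa using h
  | [a, b, c, d], hl =>
    simp only [isCox, Bool.and_eq_true, beq_iff_eq, decide_eq_true_eq] at hl
    obtain ⟨⟨⟨⟨⟨rfl, rfl⟩, h1⟩, h2⟩, _⟩, _⟩ := hl
    simp [h1, h2]
  | [a, b, c, d, e, f], hl =>
    simp only [isCox, Bool.and_eq_true, beq_iff_eq, decide_eq_true_eq] at hl
    obtain ⟨⟨⟨⟨⟨⟨rfl, rfl⟩, rfl⟩, rfl⟩, h1⟩, h2⟩, _⟩ := hl
    simp [h1, h2]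

theorem cox_one (hsq : ∀ c, c < 10 → X c * X c = 1)
    (hb : ∀ x y, x < 10 → y < 10 → adj x y = true → X x * X y * X x = X y * X x * X y)
    (hc : ∀ x y, x < 10 → y < 10 → x ≠ y → adj x y = false → X x * X y = X y * X x)
    {l : List ℕ} (hl : isCox l = true) : prodA X l = 1 := by
  match l, hl with
  | [a, b], hl =>
    simp only [isCox, Bool.and_eq_true, beq_iff_eq, decide_eq_true_eq] at hl
    obtain ⟨rfl, h⟩ := hl
    simp [hsq a h]
  | [a, b, c, d], hl =>
    simp only [isCox, Bool.and_eq_true, beq_iff_eq, decide_eq_true_eq, bne_iff_ne, ne_eq,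
      Bool.not_eq_eq_eq_not, Bool.not_true] at hl
    obtain ⟨⟨⟨⟨⟨rfl, rfl⟩, h1⟩, h2⟩, h3⟩, h4⟩ := hl
    simp only [prodA_cons, prodA_nil, one_mul]
    rw [← hc a b h1 h2 h3 h4]
    calc X a * X b * X b * X a = X a * (X b * X b) * X a := by group
      _ = 1 := by rw [hsq b h2, mul_one, hsq a h1]
  | [a, b, c, d, e, f], hl =>
    simp only [isCox, Bool.and_eq_true, beq_iff_eq, decide_eq_true_eq] at hl
    obtain ⟨⟨⟨⟨⟨⟨rfl, rfl⟩, rfl⟩, rfl⟩, h1⟩, h2⟩, h3⟩ := hl
    simp only [prodA_cons, prodA_nil, one_mul]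
    have e1 := hb a b h1 h2 h3
    calc X b * X a * X b * X a * X b * X a = (X b * X a * X b) * (X a * X b * X a) := by group
      _ = (X a * X b * X a) * (X a * X b * X a) := by rw [e1]
      _ = X a * X b * (X a * X a) * X b * X a := by group
      _ = X a * (X b * X b) * X a := by rw [hsq a h1]; group
      _ = 1 := by rw [hsq b h2, mul_one, hsq a h1]

/-- The product of three conjugates of a central element. -/
theorem zeta_cube (hσ : IsStemExtension σ) (h : CoxLift σ E X) {sp g1 g2 : List ℕ}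
    (hsp : ∀ z ∈ sp, z < 10) (hE : prodA E sp = 1) (hg1 : ∀ z ∈ g1, z < 10) (hg2 : ∀ z ∈ g2, z < 10)
    {ms : List (ℕ × ℕ)} {n : ℕ}
    (hrun : runOK 10 adj ms (sp ++ g1 ++ sp ++ g1.reverse ++ g2 ++ sp ++ g2.reverse) n = true) :
    (prodA X sp) ^ 3 = 1 := by
  have h1 := runOK_spec (CoxLift.rel h) hrun
  rw [one_pow] at h1
  have hz : σ (prodA X sp) = 1 := by
    rw [map_prodA σ X E 10 h.hσ sp hsp, hE]
  have c := central_of hσ hz
  simp only [prodA_append] at h1
  rw [prodA_reverse h.hsq g1 hg1, prodA_reverse h.hsq g2 hg2] at h1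
  set ζ := prodA X sp
  set a := prodA X g1
  set b := prodA X g2
  have e : ∀ g : Γ, g⁻¹ * ζ * g = ζ := fun g => by rw [← c g⁻¹]; group
  have h1' : b⁻¹ * ζ * b * (a⁻¹ * ζ * a * ζ) = 1 := by rw [← h1]; group
  rw [e b, e a] at h1'
  calc ζ ^ 3 = ζ * (ζ * ζ) := by rw [pow_succ, pow_two, mul_assoc]
    _ = 1 := h1'

end words

section section_

variable {Γ G Q : Type*} [Group Γ] [Group G] [Group Q] {σ : Γ →* G}

theorem comm_central_left {a b z : Γ} (hz : ∀ g, z * g = g * z) : ⁅a * z, b⁆ = ⁅a, b⁆ := by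
  rw [commutatorElement_def, commutatorElement_def]
  calc a * z * b * (a * z)⁻¹ * b⁻¹ = a * (z * b) * (z⁻¹ * a⁻¹) * b⁻¹ := by group
    _ = a * (b * z) * (z⁻¹ * a⁻¹) * b⁻¹ := by rw [hz b]
    _ = a * b * a⁻¹ * b⁻¹ := by group

theorem comm_central_right {a b z : Γ} (hz : ∀ g, z * g = g * z) : ⁅a, b * z⁆ = ⁅a, b⁆ := by
  rw [commutatorElement_def, commutatorElement_def]
  calc a * (b * z) * a⁻¹ * (b * z)⁻¹ = a * b * (z * a⁻¹) * (z⁻¹ * b⁻¹) := by group
    _ = a * b * (a⁻¹ * z) * (z⁻¹ * b⁻¹) := by rw [hz a⁻¹]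
    _ = a * b * a⁻¹ * b⁻¹ := by group

/-- If a homomorphism into a stem extension is onto modulo the kernel, its image contains the
commutator subgroup. -/
theorem commutator_le_range (hσ : IsStemExtension σ) (ψ : Q →* Γ) (hs : ∀ g : Γ, ∃ q, σ (ψ q) = σ g) :
    commutator Γ ≤ ψ.range := by
  rw [commutator_def, Subgroup.commutator_le]
  intro g₁ _ g₂ _
  obtain ⟨q₁, h₁⟩ := hs g₁
  obtain ⟨q₂, h₂⟩ := hs g₂
  have hz₁ : σ ((ψ q₁)⁻¹ * g₁) = 1 := by simp [h₁]
  have hz₂ : σ ((ψ q₂)⁻¹ * g₂) = 1 := by simp [h₂]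
  have e₁ : g₁ = ψ q₁ * ((ψ q₁)⁻¹ * g₁) := by group
  have e₂ : g₂ = ψ q₂ * ((ψ q₂)⁻¹ * g₂) := by group
  rw [e₁, e₂, comm_central_left (central_of hσ hz₁), comm_central_right (central_of hσ hz₂)]
  exact ⟨⁅q₁, q₂⁆, by simp [commutatorElement_def]⟩

/-- A section shows that the kernel is trivial. -/
theorem eq_one_of_section (hσ : IsStemExtension σ) (ψ : G →* Γ) (h : ∀ g, σ (ψ g) = g) {z : Γ}
    (hz : σ z = 1) : z = 1 := by
  have h1 : z ∈ commutator Γ := hσ.2.2 hz
  obtain ⟨g, rfl⟩ := commutator_le_range hσ ψ (fun g => ⟨σ g, h _⟩) h1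
  rw [h g] at hz
  rw [hz, map_one]

/-- A perfect group has perfect stem extensions. -/
theorem mem_commutator_of_perfect (hσ : IsStemExtension σ) (hG : commutator G = ⊤) (g : Γ) :
    g ∈ commutator Γ := by
  have h1 : σ g ∈ commutator G := by rw [hG]; trivial
  have h2 : (commutator Γ).map σ = commutator G := by
    rw [commutator_def, commutator_def, Subgroup.map_commutator, ← MonoidHom.range_eq_map,
      MonoidHom.range_eq_top.2 hσ.1]
  rw [← h2] at h1
  obtain ⟨c, hc, hc2⟩ := h1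
  have h3 : c⁻¹ * g ∈ commutator Γ := hσ.2.2 (by simp [MonoidHom.mem_ker, hc2])
  have h4 := mul_mem hc h3
  simpa using h4

/-- The commutator subgroup is killed by a character. -/
theorem char_trivial {A : Type*} [Group A] (ε : A →* ℤˣ) {a : A} (ha : a ∈ commutator A) : ε a = 1 := by
  have h : commutator A ≤ ε.ker := by
    rw [commutator_def, Subgroup.commutator_le]
    intro x _ y _
    rw [MonoidHom.mem_ker, map_commutatorElement, commutatorElement_eq_one_iff_mul_comm]
    exact mul_comm _ _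
  exact h ha

/-- The contradiction for a presented group mapping onto a stem extension of at most the same order. -/
theorem false_of_char {A : Type*} [Group A] [Finite A] (hσ : IsStemExtension σ) (hG : commutator G = ⊤)
    (ψ : A →* Γ) (hs : ∀ g : Γ, ∃ q, σ (ψ q) = σ g) (hcard : Nat.card A ≤ Nat.card Γ)
    (ε : A →* ℤˣ) {a : A} (ha : ε a ≠ 1) : False := by
  have hper := mem_commutator_of_perfect hσ hG
  have hr := commutator_le_range hσ ψ hs
  have hsurj : Function.Surjective ψ := fun g => hr (hper g)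
  have hbij := hsurj.bijective_of_nat_card_le hcard
  have h2 : (commutator A).map ψ = commutator Γ := by
    rw [commutator_def, commutator_def, Subgroup.map_commutator, ← MonoidHom.range_eq_map,
      MonoidHom.range_eq_top.2 hsurj]
  have h3 : ψ a ∈ (commutator A).map ψ := by rw [h2]; exact hper _
  obtain ⟨c, hc, hc2⟩ := h3
  have h4 : c = a := hbij.1 hc2
  subst h4
  exact ha (char_trivial ε hc)

end section_

section reduction

universe u v

variable {G : Type v} [Group G]

/-- A quotient of a stem extension by a subgroup of the kernel. -/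
theorem stem_quot {Γ : Type u} [Group Γ] [Finite Γ] [Finite G] {σ : Γ →* G} (hσ : IsStemExtension σ)
    (C : Subgroup Γ) [C.Normal] (hC : C ≤ σ.ker) :
    ∃ σ' : Γ ⧸ C →* G, IsStemExtension σ' ∧ Nat.card σ'.ker * Nat.card C = Nat.card σ.ker := by
  let σ' : Γ ⧸ C →* G := QuotientGroup.lift C σ hC
  have hmk : ∀ g : Γ, σ' (g : Γ ⧸ C) = σ g := fun g => rfl
  have hsurj : Function.Surjective σ' := fun g => by
    obtain ⟨x, hx⟩ := hσ.1 g
    exact ⟨(x : Γ ⧸ C), by rw [hmk, hx]⟩
  refine ⟨σ', ⟨hsurj, ?_, ?_⟩, ?_⟩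
  · intro x hx
    obtain ⟨g, rfl⟩ := QuotientGroup.mk_surjective x
    have hg : σ g = 1 := hx
    rw [Subgroup.mem_center_iff]
    intro y
    obtain ⟨h, rfl⟩ := QuotientGroup.mk_surjective y
    rw [← QuotientGroup.mk_mul, ← QuotientGroup.mk_mul, (central_of hσ hg h)]
  · intro x hx
    obtain ⟨g, rfl⟩ := QuotientGroup.mk_surjective x
    have hg : g ∈ commutator Γ := hσ.2.2 hx
    have h1 : ((commutator Γ).map (QuotientGroup.mk' C)) = commutator (Γ ⧸ C) := by
      rw [commutator_def, commutator_def, Subgroup.map_commutator, ← MonoidHom.range_eq_map,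
        MonoidHom.range_eq_top.2 (QuotientGroup.mk'_surjective C)]
    rw [← h1]
    exact ⟨g, hg, rfl⟩
  · have h1 := Subgroup.card_mul_index σ.ker
    have h2 := Subgroup.card_mul_index σ'.ker
    have h3 := Subgroup.card_mul_index C
    rw [Subgroup.index_ker, MonoidHom.range_eq_top.2 hσ.1, Subgroup.card_top] at h1
    rw [Subgroup.index_ker, MonoidHom.range_eq_top.2 hsurj, Subgroup.card_top] at h2
    have h4 : C.index = Nat.card (Γ ⧸ C) := rfl
    rw [h4, ← h2] at h3
    have hG : 0 < Nat.card G := Nat.card_pos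
    apply Nat.eq_of_mul_eq_mul_right hG
    rw [h1, ← h3]
    ring

/-- Reduction to kernels of prime order. -/
theorem ker_one_of_prime [Finite G]
    (h : ∀ (Γ : Type u) [Group Γ] [Finite Γ] (σ : Γ →* G), IsStemExtension σ → ¬ (Nat.card σ.ker).Prime)
    (n : ℕ) : ∀ (Γ : Type u) [Group Γ] [Finite Γ] (σ : Γ →* G), IsStemExtension σ → Nat.card σ.ker = n →
      n = 1 := by
  induction n using Nat.strong_induction_on with
  | _ n ih =>
    intro Γ _ _ σ hσ hn
    by_contra hne
    have hpos : 0 < Nat.card σ.ker := Nat.card_pos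
    obtain ⟨p, hp, hpd⟩ := Nat.exists_prime_and_dvd hne
    have : Fact p.Prime := ⟨hp⟩
    rw [← hn] at hpd
    obtain ⟨x, hx⟩ := exists_prime_orderOf_dvd_card' p hpd
    let C : Subgroup Γ := Subgroup.zpowers (x : Γ)
    have hxc : (x : Γ) ∈ center Γ := hσ.2.1 x.2
    have hCc : C ≤ center Γ := by
      rw [Subgroup.zpowers_le]
      exact hxc
    have hCN : C.Normal := by
      constructor
      intro c hc g
      have h1 := Subgroup.mem_center_iff.1 (hCc hc) g
      rw [h1, mul_inv_cancel_right]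
      exact hc
    have hCk : C ≤ σ.ker := by
      rw [Subgroup.zpowers_le]
      exact x.2
    obtain ⟨σ', hσ', hc⟩ := stem_quot hσ C hCk
    have hcardC : Nat.card C = p := by
      rw [Nat.card_zpowers, Subgroup.orderOf_coe, hx]
    rw [hcardC, hn] at hc
    have hn' : Nat.card σ'.ker < n := by
      have hp2 := hp.two_le
      have hkpos : 0 < Nat.card σ'.ker := Nat.card_pos
      rw [← hc]
      nlinarith
    have h1 := ih _ hn' (Γ ⧸ C) σ' hσ' rfl
    rw [h1, one_mul] at hc
    apply h Γ σ hσ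
    rw [hn, ← hc]
    exact hp

end reduction

end Cfsg.Agent.Lib.Schur.Fi23c.Gen
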