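import Cfsg.Agent.Lib.Schur.Fi23c.T1.Main
import Cfsg.Agent.Lib.Schur.Fi23c.T2.Main
import Cfsg.Agent.Lib.TC.D.Fi23Chain.S2
import Cfsg.Agent.Lib.TC.D.Fi23Chain.S3
import Cfsg.Agent.Lib.TC.D.Fi23Chain.S4
import Cfsg.Agent.Lib.TC.D.Fi23Chain.S5
import Cfsg.Agent.Lib.TC.D.Fi23Chain.S6
import Cfsg.Agent.Lib.TC.D.Fi23Chain.S7
import Cfsg.Agent.Lib.TC.D.Fi23Chain.S8
import Cfsg.Agent.Lib.TC.D.Fi23Chain.S9
import Cfsg.Agent.Lib.TC.Iso
import Cfsg.Agent.Lib.TC.G.Fi23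
import Cfsg.Agent.Lib.Schur.Fi23c.Gen

/-!
# The presentation without the last relation

Its order is at most twice the order of the group, and all its letters are odd.
-/

set_option autoImplicit false
set_option maxRecDepth 100000

namespace Cfsg.Agent.Lib.Schur.Fi23c.BoundA

open Cfsg Cfsg.Spor
open Cfsg.Agent.Lib.TC.Core Cfsg.Agent.Lib.TC.Enc Cfsg.Agent.Lib.TC.Pres Cfsg.Agent.Lib.TC.Perm
  Cfsg.Agent.Lib.TC.Main Cfsg.Agent.Lib.TC.Chain Cfsg.Agent.Lib.TC.G.Fi23 Cfsg.Agent.Lib.TC.Iso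
open Cfsg.Agent.Lib.Schur.Fi23c

/-- The words of the further relators of the smaller presentation. -/
def extraW₀ : List (List (Cfsg.Spor.Fi23.Gen × Bool)) := extraW.take 1

/-- The further relators of the smaller presentation. -/
def extra₀ : List (FreeGroup Cfsg.Spor.Fi23.Gen) := extraW₀.map FreeGroup.mk

/-- The relators of the smaller presentation. -/
abbrev R₀ : Set (FreeGroup Cfsg.Spor.Fi23.Gen) := coxRelators Cfsg.Spor.Fi23.edges ∪ {r | r ∈ extra₀}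

/-- The words of the relators of the smaller presentation. -/
def rels₀ : List (List ℕ) := rels.take 56

theorem hcover₀ : chkCover K Cfsg.Spor.Fi23.edges extraW₀ rels₀ = true := by decide +kernel

theorem hsound₀ : chkSound K Cfsg.Spor.Fi23.edges extraW₀ rels₀ = true := by decide +kernel

theorem hR₀ : ∀ r ∈ R₀, ∃ L, r = FreeGroup.mk L ∧ ∃ j, rotN (K.word L) j ∈ rels₀ :=
  hR_of_chk (K := K) (edges := Cfsg.Spor.Fi23.edges) (rels := rels₀) rfl hcover₀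

theorem hrels₀ : ∀ l ∈ rels₀, ∃ L, FreeGroup.mk L ∈ R₀ ∧ l = K.word L :=
  hrels_of_chk (K := K) (edges := Cfsg.Spor.Fi23.edges) (rels := rels₀) rfl hsound₀

theorem valid₀ : K.Valid (R := R₀) where
  col_lt := by intro x; cases x <;> decide
  gen_col := by intro x; cases x <;> rfl
  sgn_col := by intro x; cases x <;> rfl
  inv_lt := by decide
  col_gen := by decide
  inv_true := by decide
  inv_false := by decide
  invol := by
    intro c hc hi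
    have hc' : c < 10 := hc
    interval_cases c
    · exact ⟨rfl, node_invol (edges := Cfsg.Spor.Fi23.edges) (by decide)⟩
    · exact ⟨rfl, node_invol (edges := Cfsg.Spor.Fi23.edges) (by decide)⟩
    · exact ⟨rfl, node_invol (edges := Cfsg.Spor.Fi23.edges) (by decide)⟩
    · exact ⟨rfl, node_invol (edges := Cfsg.Spor.Fi23.edges) (by decide)⟩
    · exact ⟨rfl, node_invol (edges := Cfsg.Spor.Fi23.edges) (by decide)⟩
    · exact ⟨rfl, node_invol (edges := Cfsg.Spor.Fi23.edges) (by decide)⟩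
    · exact ⟨rfl, node_invol (edges := Cfsg.Spor.Fi23.edges) (by decide)⟩
    · exact ⟨rfl, node_invol (edges := Cfsg.Spor.Fi23.edges) (by decide)⟩
    · exact ⟨rfl, node_invol (edges := Cfsg.Spor.Fi23.edges) (by decide)⟩
    · exact ⟨rfl, node_invol (edges := Cfsg.Spor.Fi23.edges) (by decide)⟩

/-- The smaller group. -/
abbrev A : Type := PresentedGroup R₀

/-- The bound for the smaller group. -/
theorem bound : Nat.card A ≠ 0 ∧ Nat.card A ≤ 8178940946586009600 := by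
  have b0 := bound_nil (K.E R₀)
  have h0 : Lt (K.E R₀) Cfsg.Agent.Lib.TC.D.Fi23Chain.S9_Tab.ls' = Lt (K.E R₀) [] := rfl
  rw [← h0] at b0
  have b1 := bound_up (stage_of_cols valid₀ hrels₀ Cfsg.Agent.Lib.TC.D.Fi23Chain.S9_Tab.ls Cfsg.Agent.Lib.TC.D.Fi23Chain.S9_Tab.ls' Cfsg.Agent.Lib.TC.D.Fi23Chain.S9_Tab.inv'
    Cfsg.Agent.Lib.TC.D.Fi23Chain.S9_Tab.rels' Cfsg.Agent.Lib.TC.D.Fi23Chain.S9_Tab.subs'
    Cfsg.Agent.Lib.TC.D.Fi23Chain.S9_Tab.witT.get Cfsg.Agent.Lib.TC.D.Fi23Chain.S9_Tab.cert 2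
    (by decide +kernel) (by decide) (by decide +kernel) (by decide +kernel) (by decide +kernel)
    Cfsg.Agent.Lib.TC.D.Fi23Chain.S9.hchecked Cfsg.Agent.Lib.TC.D.Fi23Chain.S9.hcount) b0
  have b2 := bound_up (stage_of_cols valid₀ hrels₀ Cfsg.Agent.Lib.TC.D.Fi23Chain.S8_Tab.ls Cfsg.Agent.Lib.TC.D.Fi23Chain.S8_Tab.ls' Cfsg.Agent.Lib.TC.D.Fi23Chain.S8_Tab.inv'
    Cfsg.Agent.Lib.TC.D.Fi23Chain.S8_Tab.rels' Cfsg.Agent.Lib.TC.D.Fi23Chain.S8_Tab.subs'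
    Cfsg.Agent.Lib.TC.D.Fi23Chain.S8_Tab.witT.get Cfsg.Agent.Lib.TC.D.Fi23Chain.S8_Tab.cert 3
    (by decide +kernel) (by decide) (by decide +kernel) (by decide +kernel) (by decide +kernel)
    Cfsg.Agent.Lib.TC.D.Fi23Chain.S8.hchecked Cfsg.Agent.Lib.TC.D.Fi23Chain.S8.hcount) b1
  have b3 := bound_up (stage_of_cols valid₀ hrels₀ Cfsg.Agent.Lib.TC.D.Fi23Chain.S7_Tab.ls Cfsg.Agent.Lib.TC.D.Fi23Chain.S7_Tab.ls' Cfsg.Agent.Lib.TC.D.Fi23Chain.S7_Tab.inv'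
    Cfsg.Agent.Lib.TC.D.Fi23Chain.S7_Tab.rels' Cfsg.Agent.Lib.TC.D.Fi23Chain.S7_Tab.subs'
    Cfsg.Agent.Lib.TC.D.Fi23Chain.S7_Tab.witT.get Cfsg.Agent.Lib.TC.D.Fi23Chain.S7_Tab.cert 4
    (by decide +kernel) (by decide) (by decide +kernel) (by decide +kernel) (by decide +kernel)
    Cfsg.Agent.Lib.TC.D.Fi23Chain.S7.hchecked Cfsg.Agent.Lib.TC.D.Fi23Chain.S7.hcount) b2
  have b4 := bound_up (stage_of_cols valid₀ hrels₀ Cfsg.Agent.Lib.TC.D.Fi23Chain.S6_Tab.ls Cfsg.Agent.Lib.TC.D.Fi23Chain.S6_Tab.ls' Cfsg.Agent.Lib.TC.D.Fi23Chain.S6_Tab.inv'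
    Cfsg.Agent.Lib.TC.D.Fi23Chain.S6_Tab.rels' Cfsg.Agent.Lib.TC.D.Fi23Chain.S6_Tab.subs'
    Cfsg.Agent.Lib.TC.D.Fi23Chain.S6_Tab.witT.get Cfsg.Agent.Lib.TC.D.Fi23Chain.S6_Tab.cert 8
    (by decide +kernel) (by decide) (by decide +kernel) (by decide +kernel) (by decide +kernel)
    Cfsg.Agent.Lib.TC.D.Fi23Chain.S6.hchecked Cfsg.Agent.Lib.TC.D.Fi23Chain.S6.hcount) b3
  have b5 := bound_up (stage_of_cols valid₀ hrels₀ Cfsg.Agent.Lib.TC.D.Fi23Chain.S5_Tab.ls Cfsg.Agent.Lib.TC.D.Fi23Chain.S5_Tab.ls' Cfsg.Agent.Lib.TC.D.Fi23Chain.S5_Tab.inv'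
    Cfsg.Agent.Lib.TC.D.Fi23Chain.S5_Tab.rels' Cfsg.Agent.Lib.TC.D.Fi23Chain.S5_Tab.subs'
    Cfsg.Agent.Lib.TC.D.Fi23Chain.S5_Tab.witT.get Cfsg.Agent.Lib.TC.D.Fi23Chain.S5_Tab.cert 10
    (by decide +kernel) (by decide) (by decide +kernel) (by decide +kernel) (by decide +kernel)
    Cfsg.Agent.Lib.TC.D.Fi23Chain.S5.hchecked Cfsg.Agent.Lib.TC.D.Fi23Chain.S5.hcount) b4
  have b6 := bound_up (stage_of_cols valid₀ hrels₀ Cfsg.Agent.Lib.TC.D.Fi23Chain.S4_Tab.ls Cfsg.Agent.Lib.TC.D.Fi23Chain.S4_Tab.ls' Cfsg.Agent.Lib.TC.D.Fi23Chain.S4_Tab.inv'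
    Cfsg.Agent.Lib.TC.D.Fi23Chain.S4_Tab.rels' Cfsg.Agent.Lib.TC.D.Fi23Chain.S4_Tab.subs'
    Cfsg.Agent.Lib.TC.D.Fi23Chain.S4_Tab.witT.get Cfsg.Agent.Lib.TC.D.Fi23Chain.S4_Tab.cert 27
    (by decide +kernel) (by decide) (by decide +kernel) (by decide +kernel) (by decide +kernel)
    Cfsg.Agent.Lib.TC.D.Fi23Chain.S4.hchecked Cfsg.Agent.Lib.TC.D.Fi23Chain.S4.hcount) b5
  have b7 := bound_up (stage_of_cols valid₀ hrels₀ Cfsg.Agent.Lib.TC.D.Fi23Chain.S3_Tab.ls Cfsg.Agent.Lib.TC.D.Fi23Chain.S3_Tab.ls' Cfsg.Agent.Lib.TC.D.Fi23Chain.S3_Tab.inv'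
    Cfsg.Agent.Lib.TC.D.Fi23Chain.S3_Tab.rels' Cfsg.Agent.Lib.TC.D.Fi23Chain.S3_Tab.subs'
    Cfsg.Agent.Lib.TC.D.Fi23Chain.S3_Tab.witT.get Cfsg.Agent.Lib.TC.D.Fi23Chain.S3_Tab.cert 243
    (by decide +kernel) (by decide) (by decide +kernel) (by decide +kernel) (by decide +kernel)
    Cfsg.Agent.Lib.TC.D.Fi23Chain.S3.hchecked Cfsg.Agent.Lib.TC.D.Fi23Chain.S3.hcount) b6
  have b8 := bound_up (stage_of_cols valid₀ hrels₀ Cfsg.Agent.Lib.TC.D.Fi23Chain.S2_Tab.ls Cfsg.Agent.Lib.TC.D.Fi23Chain.S2_Tab.ls' Cfsg.Agent.Lib.TC.D.Fi23Chain.S2_Tab.inv'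
    Cfsg.Agent.Lib.TC.D.Fi23Chain.S2_Tab.rels' Cfsg.Agent.Lib.TC.D.Fi23Chain.S2_Tab.subs'
    Cfsg.Agent.Lib.TC.D.Fi23Chain.S2_Tab.witT.get Cfsg.Agent.Lib.TC.D.Fi23Chain.S2_Tab.cert 728
    (by decide +kernel) (by decide) (by decide +kernel) (by decide +kernel) (by decide +kernel)
    Cfsg.Agent.Lib.TC.D.Fi23Chain.S2.hchecked Cfsg.Agent.Lib.TC.D.Fi23Chain.S2.hcount) b7
  have b9 := bound_up (stage_of_cols valid₀ hrels₀ T2.Tab.ls T2.Tab.ls' T2.Tab.inv' T2.Tab.rels' T2.Tab.subs' T2.Tab.witT.get T2.Tab.cert 28160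
    (by decide +kernel) (by decide) (by decide +kernel) T2.Main.h1 T2.Main.h2 T2.Main.hchecked T2.Main.hcount) b8
  have b10 := bound_up (stage_of_cols valid₀ hrels₀ T1.Tab.ls T1.Tab.ls' T1.Tab.inv' T1.Tab.rels' T1.Tab.subs' T1.Tab.witT.get T1.Tab.cert 31671
    (by decide +kernel) (by decide) (by decide +kernel) T1.Main.h1 T1.Main.h2 T1.Main.hchecked T1.Main.hcount) b9
  have b := bound_top valid₀ T1.Tab.ls (by decide +kernel) b10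
  exact ⟨b.1, b.2.trans (by norm_num)⟩

theorem finite : Finite A := Nat.finite_of_card_ne_zero bound.1

theorem rels₀_even : ∀ l ∈ rels₀, l.length % 2 = 0 := by decide +kernel

/-- All the letters are odd. -/
theorem exists_sign : ∃ ε : A →* ℤˣ, ∀ c, c < K.k → ε (K.E R₀ c) = -1 := by
  refine exists_hom_of_letters valid₀ hR₀ (rels := rels₀) (fun _ => (-1 : ℤˣ)) ?_ ?_
  · intro c _
    simp
  · intro l hl
    rw [Gen.prodA_const]
    exact Even.neg_one_pow (Nat.even_iff.2 (rels₀_even l hl))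

end Cfsg.Agent.Lib.Schur.Fi23c.BoundA
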