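import Cfsg.Agent.Lib.Schur.Fi23c.Gen
import Cfsg.Agent.Lib.Schur.Fi23c.Data
import Cfsg.Agent.Lib.TC.D.Fi23Chain.Main
import Cfsg.Agent.Lib.TC.Iso

/-!
# Facts about the presented group: relations among the letters and the order of a subgroup
-/

set_option autoImplicit false
set_option maxRecDepth 100000

namespace Cfsg.Agent.Lib.Schur.Fi23c.Facts

open Cfsg Subgroup
open scoped commutatorElement
open Cfsg.Agent.Lib.TC.Core Cfsg.Agent.Lib.TC.Pres Cfsg.Agent.Lib.TC.Perm Cfsg.Agent.Lib.TC.Main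
  Cfsg.Agent.Lib.TC.Chain Cfsg.Agent.Lib.TC.Iso Cfsg.Agent.Lib.TC.G.Fi23
  Cfsg.Agent.Lib.TC.D.Fi23a.Tab Cfsg.Agent.Lib.TC.Chain.PermLev
open Cfsg.Agent.Lib.Schur.Fi23c.Logic Cfsg.Agent.Lib.Schur.Fi23c.Data Cfsg.Agent.Lib.Schur.Fi23c.Gen

/-- The letters of the group. -/
noncomputable abbrev E : ℕ → PresentedGroup Rel := K.E Rel

theorem hcard : Nat.card (PresentedGroup Rel) = 4089470473293004800 :=
  Cfsg.Agent.Lib.TC.D.Fi23Chain.Main.simple_card.2

/-- The check on a base. -/
noncomputable def fix (w : List ℕ) : Bool := fixAll pt (allBase [0] Cfsg.Agent.Lib.TC.D.Fi23Chain.Lev.levels) w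

theorem one_of_fix (w : List ℕ) (hw : ∀ z ∈ w, z < 10) (hfix : fix w = true) : prodA E w = 1 :=
  word_spec Cfsg.Agent.Lib.TC.D.Fi23a.Ok.ok _ hcard (by norm_num) Cfsg.Agent.Lib.TC.D.Fi23Chain.Lev.levels
    Cfsg.Agent.Lib.TC.D.Fi23Chain.Lev.hlev (by decide +kernel) w hw hfix

theorem hsqE : ∀ c, c < 10 → E c * E c = 1 := by
  have h : ∀ c, c < 10 → fix [c, c] = true := by decide +kernel
  intro c hc
  have h1 := one_of_fix [c, c] (by simpa using hc) (h c hc)
  simpa using h1

theorem hbE : ∀ x y, x < 10 → y < 10 → adj x y = true → E x * E y * E x = E y * E x * E y := by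
  have h : ∀ x, x < 10 → ∀ y, y < 10 → adj x y = true → fix [x, y, x, y, x, y] = true := by decide +kernel
  intro x y hx hy ha
  have h1 := one_of_fix [x, y, x, y, x, y] (by simp [hx, hy]) (h x hx y hy ha)
  simp only [prodA_cons, prodA_nil, one_mul] at h1
  have h2 := hsqE x hx
  have h3 := hsqE y hy
  have h4 : E y * E x * E y * (E x * E y * E x) = 1 := by rw [← h1]; group
  have h5 : (E x * E y * E x) * (E x * E y * E x) = 1 := by
    calc (E x * E y * E x) * (E x * E y * E x) = E x * E y * (E x * E x) * E y * E x := by group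
      _ = E x * (E y * E y) * E x := by rw [h2]; group
      _ = 1 := by rw [h3, mul_one, h2]
  exact (mul_right_cancel (h4.trans h5.symm)).symm

theorem hcE : ∀ x y, x < 10 → y < 10 → x ≠ y → adj x y = false → E x * E y = E y * E x := by
  have h : ∀ x, x < 10 → ∀ y, y < 10 → adj x y = false → fix [x, y, x, y] = true := by decide +kernel
  intro x y hx hy _ ha
  have h1 := one_of_fix [x, y, x, y] (by simp [hx, hy]) (h x hx y hy ha)
  simp only [prodA_cons, prodA_nil, one_mul] at h1
  have h2 := hsqE x hx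
  have h3 := hsqE y hy
  calc E x * E y = E x * E y * (E y * E x * E y * E x) := by rw [h1, mul_one]
    _ = E x * (E y * E y) * E x * E y * E x := by group
    _ = (E x * E x) * E y * E x := by rw [h3]; group
    _ = E y * E x := by rw [h2, one_mul]

theorem hEf : EFacts E := ⟨hsqE, hbE, hcE⟩

theorem tw_lt : ∀ z ∈ tw, z < 10 := by decide +kernel

theorem hTE : ∀ x ∈ E7L, prodA E tw * E x = E x * prodA E tw := by
  have h : ∀ x ∈ E7L, x < 10 ∧ fix (tw ++ [x] ++ tw.reverse ++ [x]) = true := by decide +kernel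
  intro x hx
  obtain ⟨h0, h1⟩ := h x hx
  have h2 := one_of_fix (tw ++ [x] ++ tw.reverse ++ [x]) (by
    intro z hz
    simp only [List.mem_append, List.mem_singleton, List.mem_reverse] at hz
    rcases hz with ((hz | hz) | hz) | hz
    · exact tw_lt z hz
    · omega
    · exact tw_lt z hz
    · omega) h1
  simp only [prodA_append, prodA_cons, prodA_nil, one_mul] at h2
  rw [prodA_reverse hsqE tw tw_lt] at h2
  set T := prodA E tw
  have h3 := hsqE x h0
  have h2' : E x * T⁻¹ * E x * T = 1 := by rw [← h2]; group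
  calc T * E x = T * E x * (E x * T⁻¹ * E x * T) := by rw [h2', mul_one]
    _ = T * (E x * E x) * T⁻¹ * E x * T := by group
    _ = E x * T := by rw [h3]; group

/-- The check of a conjugating word. -/
noncomputable def pairOK (q : ℕ × ℕ × List ℕ) : Bool :=
  (q.2.2.all fun z => decide (z < 10)) && decide (q.1 < 10) && decide (q.2.1 < 10) &&
    fix (q.2.2.reverse ++ tw ++ q.2.2 ++ [q.1]) && fix (q.2.2.reverse ++ [0] ++ q.2.2 ++ [q.2.1])

theorem pairs_ok : pairs.all pairOK = true := by decide +kernel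

theorem pairs_cover : ∀ x, x < 10 → ∀ y, y < 10 → x < y → adj x y = false →
    (pairs.any fun q => q.1 == x && q.2.1 == y) = true := by decide +kernel

theorem hpairE : ∀ x y, x < 10 → y < 10 → x < y → adj x y = false → ∃ g : List ℕ, (∀ z ∈ g, z < 10) ∧
      prodA E g * prodA E tw * (prodA E g)⁻¹ = E x ∧ prodA E g * E 0 * (prodA E g)⁻¹ = E y := by
  intro x y hx hy hlt ha
  obtain ⟨q, hq, hq2⟩ := List.any_eq_true.1 (pairs_cover x hx y hy hlt ha)
  obtain ⟨x', y', g⟩ := q
  simp only [Bool.and_eq_true, beq_iff_eq] at hq2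
  obtain ⟨rfl, rfl⟩ := hq2
  have h1 := List.all_eq_true.1 pairs_ok _ hq
  simp only [pairOK, Bool.and_eq_true, List.all_eq_true, decide_eq_true_eq] at h1
  obtain ⟨⟨⟨⟨hg, _⟩, _⟩, h2⟩, h3⟩ := h1
  refine ⟨g, hg, ?_, ?_⟩
  · have h4 := one_of_fix _ (by
      intro z hz
      simp only [List.mem_append, List.mem_singleton, List.mem_reverse] at hz
      rcases hz with ((hz | hz) | hz) | hz
      · exact hg z hz
      · exact tw_lt z hz
      · exact hg z hz
      · omega) h2
    simp only [prodA_append, prodA_cons, prodA_nil, one_mul] at h4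
    rw [prodA_reverse hsqE g hg] at h4
    have h5 := hsqE _ hx
    have h6 : E x' * (prodA E g * prodA E tw * (prodA E g)⁻¹) = 1 := by rw [← h4]; group
    exact (mul_left_cancel (h6.trans h5.symm))
  · have h4 := one_of_fix _ (by
      intro z hz
      simp only [List.mem_append, List.mem_singleton, List.mem_reverse] at hz
      rcases hz with ((hz | hz) | hz) | hz
      · exact hg z hz
      · omega
      · exact hg z hz
      · omega) h3
    simp only [prodA_append, prodA_cons, prodA_nil, one_mul] at h4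
    rw [prodA_reverse hsqE g hg] at h4
    have h5 := hsqE _ hy
    have h6 : E y' * (prodA E g * E 0 * (prodA E g)⁻¹) = 1 := by rw [← h4]; group
    exact (mul_left_cancel (h6.trans h5.symm))

theorem spider_lt : ∀ z ∈ spiderW, z < 10 := by decide +kernel
theorem e7_lt : ∀ z ∈ e7W, z < 10 := by decide +kernel
theorem e7_mem : ∀ z ∈ e7W, z ∈ E7L := by decide +kernel
theorem e7_len : e7W.length = 63 := by decide +kernel
theorem g1_lt : ∀ z ∈ g1, z < 10 := by decide +kernel
theorem g2_lt : ∀ z ∈ g2, z < 10 := by decide +kernel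

theorem spiderE : prodA E spiderW = 1 :=
  rel_prodA_one valid hrels _ (by decide +kernel)

theorem e7E : prodA E e7W = 1 :=
  rel_prodA_one valid hrels _ (by decide +kernel)

/-- The group is perfect. -/
theorem perfect : commutator (PresentedGroup Rel) = ⊤ := by
  have hs := Cfsg.Agent.Lib.TC.D.Fi23Chain.Main.simple_card.1
  rcases hs.eq_bot_or_eq_top_of_normal (commutator (PresentedGroup Rel)) inferInstance with h | h
  · exfalso
    have h1 : E 0 * E 1 = E 1 * E 0 := by
      have h2 : ⁅E 0, E 1⁆ = 1 := by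
        have h3 : ⁅E 0, E 1⁆ ∈ commutator (PresentedGroup Rel) :=
          Subgroup.commutator_mem_commutator (Subgroup.mem_top _) (Subgroup.mem_top _)
        rw [h] at h3
        exact h3
      exact commutatorElement_eq_one_iff_mul_comm.1 h2
    apply word_ne_one Cfsg.Agent.Lib.TC.D.Fi23a.Ok.ok [0, 1, 0, 1] (by decide) 6 (by decide +kernel)
      (by decide +kernel)
    simp only [prodA_cons, prodA_nil, one_mul]
    have h2 := hsqE 0 (by norm_num)
    have h3 := hsqE 1 (by norm_num)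
    calc E 1 * E 0 * E 1 * E 0 = E 1 * (E 0 * E 1) * E 0 := by group
      _ = E 1 * (E 1 * E 0) * E 0 := by rw [h1]
      _ = (E 1 * E 1) * (E 0 * E 0) := by group
      _ = 1 := by rw [h2, h3, mul_one]
  · exact h

/-! ### A lower bound for the order of a subgroup -/

theorem card_orbit_mul_le {Γ : Type*} [Group Γ] [Finite Γ] {n : ℕ} (φ : Γ →* Equiv.Perm (Fin n)) (p : Fin n)
    {Y L : Subgroup Γ} (hYL : Y ≤ L) (hY : ∀ y ∈ Y, φ y p = p) (O : Set (Fin n))
    (hO : ∀ i ∈ O, ∃ g ∈ L, φ g p = i) : O.ncard * Nat.card Y ≤ Nat.card L := by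
  have h1 := Subgroup.card_mul_index (Y.subgroupOf L)
  rw [Nat.card_congr (Subgroup.subgroupOfEquivOfLe hYL).toEquiv] at h1
  rw [← h1, mul_comm]
  apply Nat.mul_le_mul_left
  choose! g hg hg2 using hO
  let f : O → L ⧸ Y.subgroupOf L := fun i => QuotientGroup.mk ⟨g i.1, hg i.1 i.2⟩
  have hf : Function.Injective f := by
    intro i j hij
    have h2 := QuotientGroup.eq.1 hij
    rw [Subgroup.mem_subgroupOf] at h2
    have h3 := hY _ h2
    simp only [Subgroup.coe_mul, Subgroup.coe_inv, map_mul, map_inv, Equiv.Perm.mul_apply] at h3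
    rw [Equiv.Perm.inv_eq_iff_eq, hg2 j.1 j.2, hg2 i.1 i.2] at h3
    exact Subtype.ext h3.symm
  have h4 := Nat.card_le_card_of_injective f hf
  rwa [Nat.card_coe_set_eq] at h4

theorem tree_ok : levGo pt [[1], [2], [3], [4], [5], [6], [7], [8], [9]] orbTree (Cfsg.Agent.Lib.PermComp.Core.setBit 0 0) = true := by
  decide +kernel

theorem tree_len : orbTree.length = 1079 := by decide +kernel

theorem Y_fix : ∀ c ∈ [1, 2, 3, 4, 5, 6, 8, 9], pt.val [c] 0 = 0 := by decide +kernel

/-- A lower bound for the order of the subgroup generated by the letters `1, …, 9`. -/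
theorem L_card : 9904359628800 ≤ Nat.card (Lt E [1, 2, 3, 4, 5, 6, 7, 8, 9]) := by
  have hfin : Finite (PresentedGroup Rel) := Nat.finite_of_card_ne_zero (by rw [hcard]; norm_num)
  have ok := Cfsg.Agent.Lib.TC.D.Fi23a.Ok.ok
  have := ok.npos
  obtain ⟨φ, hφ⟩ := ok.exists_action
  have hval : ∀ l : List ℕ, (∀ z ∈ l, z < pt.k) → ∀ i : Fin pt.n,
      (φ (prodA E l) i).1 = pt.val l i.1 := fun l hl i =>
    phi_prodA_apply ok.hPk ok.hG φ hφ l (fun z hz => by rw [← ok.hPk]; exact hl z hz) i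
  set L := Lt E [1, 2, 3, 4, 5, 6, 7, 8, 9] with hL
  let Y := Lt E [1, 2, 3, 4, 5, 6, 8, 9]
  have hYL : Y ≤ L := by
    apply Subgroup.closure_mono
    rintro _ ⟨c, hc, rfl⟩
    refine ⟨c, ?_, rfl⟩
    simp only [Set.mem_ofPred_eq, List.mem_cons, List.not_mem_nil, or_false] at hc ⊢
    omega
  -- the order of the small subgroup
  have hY : 9170703360 ≤ Nat.card Y := by
    have s0 := Cfsg.Agent.Lib.TC.D.Fi23Chain.Top.stage
    have s1 := Cfsg.Agent.Lib.TC.D.Fi23Chain.S1.stage
    have h1 : Nat.card (Lt (K.E Rel) Cfsg.Agent.Lib.TC.D.Fi23Chain.Top.ls) = 4089470473293004800 := by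
      rw [Lt_eq_top (K.E Rel) K.k _ (Cols.closure_E valid) (by decide +kernel), Subgroup.card_top, hcard]
    rw [h1] at s0
    have e0 : Nat.card (Lt E Cfsg.Agent.Lib.TC.D.Fi23Chain.Top.ls') = Nat.card Y * _ := s1.2.1
    have h2 := s0.2.1
    have h3 := s0.2.2.2
    have h4 : _ ≤ 14080 := s1.2.2.2
    rw [e0] at h2
    by_contra hlt
    have hlt : Nat.card Y < 9170703360 := not_le.1 hlt
    have h5 : Nat.card Y * (Lt E Cfsg.Agent.Lib.TC.D.Fi23Chain.S1_Tab.ls').relIndex (Lt E Cfsg.Agent.Lib.TC.D.Fi23Chain.S1_Tab.ls)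
        * (Lt E Cfsg.Agent.Lib.TC.D.Fi23Chain.Top.ls').relIndex (Lt E Cfsg.Agent.Lib.TC.D.Fi23Chain.Top.ls)
        ≤ 9170703359 * 14080 * 31671 :=
      Nat.mul_le_mul (Nat.mul_le_mul (Nat.le_of_lt_succ hlt) h4) h3
    have h6 : (9170703359 * 14080 * 31671 : ℕ) < 4089470473293004800 := by norm_num
    exact absurd h2 (by
      intro h7
      have h8 : 4089470473293004800 ≤ 9170703359 * 14080 * 31671 := by
        calc 4089470473293004800 = _ := h7
          _ ≤ _ := h5
      omega)
  have hYfix : ∀ y ∈ Y, φ y 0 = 0 := by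
    have h1 : Y ≤ stab0 φ := by
      rw [show Y = Subgroup.closure (E '' {c | c ∈ [1, 2, 3, 4, 5, 6, 8, 9]}) from rfl, Subgroup.closure_le]
      rintro _ ⟨c, hc, rfl⟩
      apply (mem_stab0 φ _).2
      apply Fin.ext
      have hcl : c < pt.k := by
        have hc' : c ∈ [1, 2, 3, 4, 5, 6, 8, 9] := hc
        have : pt.k = 10 := ok.hPk
        simp only [List.mem_cons, List.not_mem_nil, or_false] at hc'
        omega
      have h2 := hval [c] (by simpa using hcl) 0
      simp only [prodA_cons, prodA_nil, one_mul] at h2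
      rw [h2]
      exact Y_fix c hc
    intro y hy
    exact (mem_stab0 φ _).1 (h1 hy)
  -- the orbit
  let O : Set (Fin pt.n) := {i | ∃ g ∈ L, φ g 0 = i}
  have hO : (O.ncard) * Nat.card Y ≤ Nat.card L :=
    card_orbit_mul_le φ 0 hYL hYfix O (fun i hi => hi)
  have hwords : ∀ w ∈ [[1], [2], [3], [4], [5], [6], [7], [8], [9]], ∀ z ∈ w, z < pt.k := by
    have : pt.k = 10 := ok.hPk
    rw [this]
    decide
  have hwL : ∀ w ∈ [[1], [2], [3], [4], [5], [6], [7], [8], [9]], prodA E w ∈ L := by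
    intro w hw
    have h1 : ∃ c ∈ [1, 2, 3, 4, 5, 6, 7, 8, 9], w = [c] := by
      simpa using hw
    obtain ⟨c, hc, rfl⟩ := h1
    simp only [prodA_cons, prodA_nil, one_mul]
    exact Subgroup.subset_closure ⟨c, hc, rfl⟩
  have hOcl : ∀ w ∈ [[1], [2], [3], [4], [5], [6], [7], [8], [9]], ∀ i ∈ O, φ (prodA E w) i ∈ O := by
    rintro w hw _ ⟨g, hg, rfl⟩
    refine ⟨prodA E w * g, mul_mem (hwL w hw) hg, ?_⟩
    rw [map_mul, Equiv.Perm.mul_apply]
  have hpt0 : 0 < pt.n := ok.hG.hpos
  have hs : ∀ i, Cfsg.Agent.Lib.PermComp.Core.bit (Cfsg.Agent.Lib.PermComp.Core.setBit 0 0) i = true →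
      ∃ h : i < pt.n, (⟨i, h⟩ : Fin pt.n) ∈ O := by
    intro i hi
    rcases (Cfsg.Agent.Lib.PermComp.Core.bit_setBit 0 0 i).1 hi with hi | hi
    · rw [bit_zero] at hi
      exact absurd hi (by simp)
    · subst hi
      exact ⟨hpt0, 1, one_mem _, by simp⟩
  have h4 := levGo_spec hval hwords hOcl orbTree _ hs tree_ok
  have h5 : {i : Fin pt.n | Cfsg.Agent.Lib.PermComp.Core.bit (Cfsg.Agent.Lib.PermComp.Core.setBit 0 0) i.1 = true} = {(⟨0, hpt0⟩ : Fin pt.n)} := by
    ext i
    simp only [Set.mem_ofPred_eq, Set.mem_singleton_iff]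
    rw [Cfsg.Agent.Lib.PermComp.Core.bit_setBit, bit_zero]
    constructor
    · rintro (h | h)
      · exact absurd h (by simp)
      · exact Fin.ext h
    · intro h
      exact Or.inr (congrArg Fin.val h)
  rw [h5, Set.ncard_singleton, tree_len] at h4
  calc 9904359628800 = 1080 * 9170703360 := by norm_num
    _ ≤ O.ncard * Nat.card Y := Nat.mul_le_mul (by omega) hY
    _ ≤ Nat.card L := hO

end Cfsg.Agent.Lib.Schur.Fi23c.Facts
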