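import Cfsg.Agent.Lib.Schur.Fi23c.Facts
import Cfsg.Agent.Lib.Schur.Fi23c.Bound3
import Cfsg.Agent.Lib.Schur.Fi23c.BoundA
import Cfsg.Agent.Lib.Schur.Stem

/-!
# Stem extensions of the group on the diagram `Y₃₄₂`

A stem extension with kernel of prime order `p`:

* the letters lift to involutions satisfying the relations of the Coxeter diagram (for `p = 2` this
  uses the transposition `t` and the transitivity on commuting pairs of transpositions);
* the word of the spider is a central element whose cube is trivial (by rewriting in the Coxeter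
  group); for `p = 3` a coset enumeration of the group with an adjoined central element of order three
  gives a bound for the order which excludes a nontrivial element;
* for odd `p` the word of `E₇` has trivial square, so the letters give a section;
* for `p = 2` the presentation without the word of `E₇` maps onto the extension, has at most the same
  order, and all its letters are odd, contradiction with perfectness.
-/

set_option autoImplicit false
set_option maxRecDepth 100000

namespace Cfsg.Agent.Lib.Schur.Fi23c.Final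

open Cfsg Subgroup
open Cfsg.Agent.Lib.TC.Core Cfsg.Agent.Lib.TC.Pres Cfsg.Agent.Lib.TC.Perm Cfsg.Agent.Lib.TC.Main
  Cfsg.Agent.Lib.TC.Chain Cfsg.Agent.Lib.TC.Iso Cfsg.Agent.Lib.TC.G.Fi23
open Cfsg.Agent.Lib.Schur.CoxRew Cfsg.Agent.Lib.Schur.Fi23c.Logic Cfsg.Agent.Lib.Schur.Fi23c.Data
  Cfsg.Agent.Lib.Schur.Fi23c.Gen Cfsg.Agent.Lib.Schur.Fi23c.Facts

universe u

section main

variable {Γ : Type u} [Group Γ] [Finite Γ] {σ : Γ →* PresentedGroup Rel}

theorem pow_card_ker (z : Γ) (hz : σ z = 1) : z ^ Nat.card σ.ker = 1 := by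
  have h := pow_card_eq_one' (x := (⟨z, hz⟩ : σ.ker))
  exact congrArg Subtype.val h

theorem hinv_X {X : ℕ → Γ} (hσ : IsStemExtension σ) (h : CoxLift σ E X) : ∀ c, c < 10 → (X c)⁻¹ = X c := by
  intro c hc
  exact inv_eq_of_mul_eq_one_left (h.hsq c hc)

/-- The lifts. -/
theorem exists_lift (hσ : IsStemExtension σ) (hp : (Nat.card σ.ker).Prime) : ∃ X, CoxLift σ E X := by
  rcases hp.eq_two_or_odd' with h2 | ⟨m, hm⟩
  · refine coxLift_two hσ (fun z hz => ?_) hEf e7W e7_mem e7_lt e7E e7_len movesC hC tw tw_lt hTE hpairE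
    have h := pow_card_ker z hz
    rw [h2, pow_two] at h
    exact h
  · refine coxLift_odd hσ (m := m) (fun z hz => ?_) hEf
    rw [← hm]
    exact pow_card_ker z hz

/-- The word of the spider has trivial cube. -/
theorem zeta_cube' {X : ℕ → Γ} (hσ : IsStemExtension σ) (h : CoxLift σ E X) : (prodA X spiderW) ^ 3 = 1 :=
  zeta_cube hσ h spider_lt spiderE g1_lt g2_lt hW

/-- The word of the spider, in the case of kernel of order three. -/
theorem zeta_three {X : ℕ → Γ} (hσ : IsStemExtension σ) (h : CoxLift σ E X) : prodA X spiderW = 1 := by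
  by_contra hne
  have hz3 := zeta_cube' hσ h
  set ζ := prodA X spiderW with hζ
  have hzk : σ ζ = 1 := by
    rw [hζ, map_prodA σ X E 10 h.hσ spiderW spider_lt, spiderE]
  have hc := central_of hσ hzk
  let E3 : ℕ → Γ := fun c => if c < 10 then X c else if c = 10 then ζ else ζ⁻¹
  have hE3lt : ∀ c, c < 10 → E3 c = X c := fun c hc => by simp [E3, hc]
  have hE3_10 : E3 10 = ζ := by simp [E3]
  have hE3_11 : E3 11 = ζ⁻¹ := by simp [E3]
  have hinv : ∀ c, c ≤ 11 → E3 (Bound3.inv3 c) = (E3 c)⁻¹ := by
    intro c hc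
    by_cases h10 : c = 10
    · subst h10
      simp only [Bound3.inv3, if_true, hE3_10, hE3_11]
    · by_cases h11 : c = 11
      · subst h11
        simp [Bound3.inv3, hE3_10, hE3_11]
      · have hc10 : c < 10 := by omega
        have : Bound3.inv3 c = c := by simp [Bound3.inv3, h10, h11]
        rw [this, hE3lt c hc10]
        exact (inv_eq_of_mul_eq_one_left (h.hsq c hc10)).symm
  have hcox : ∀ l ∈ Bound3.coxW, prodA E3 l = 1 := by
    have hchk : Bound3.coxW.all isCox = true := by decide +kernel
    intro l hl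
    have h1 := List.all_eq_true.1 hchk l hl
    rw [prodA_congr l (fun z hz => hE3lt z (isCox_lt h1 z hz))]
    exact cox_one h.hsq h.hb h.hc h1
  have hrel : ∀ l ∈ Bound3.rels3, prodA E3 l = 1 := by
    intro l hl
    simp only [Bound3.rels3, List.mem_append, List.mem_singleton, List.mem_map] at hl
    rcases hl with ((hl | hl) | ⟨x, hx, rfl⟩) | rfl
    · exact hcox l hl
    · subst hl
      simp only [prodA_cons, prodA_nil, one_mul, hE3_10]
      rw [← hz3, pow_succ, pow_two]
    · have hx10 : x < 10 := by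
        simp only [List.mem_cons, List.not_mem_nil, or_false] at hx
        omega
      simp only [prodA_cons, prodA_nil, one_mul, hE3_10, hE3_11, hE3lt x hx10]
      calc X x * ζ⁻¹ * X x * ζ = X x * ζ⁻¹ * (X x * ζ) := by group
        _ = X x * ζ⁻¹ * (ζ * X x) := by rw [hc (X x)]
        _ = X x * X x := by group
        _ = 1 := h.hsq x hx10
    · rw [prodA_append, prodA_congr spiderW (fun z hz => hE3lt z (spider_lt z hz))]
      simp only [prodA_cons, prodA_nil, one_mul, hE3_11]
      rw [← hζ]
      group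
  obtain ⟨hb0, hb1⟩ := Bound3.bound E3 hinv hrel
  set M := Lt E3 [1, 2, 3, 4, 5, 6, 7, 8, 9, 10, 11] with hM
  let σM : M →* PresentedGroup Rel := σ.comp M.subtype
  have hfinG : Finite (PresentedGroup Rel) := Nat.finite_of_card_ne_zero (by rw [hcard]; norm_num)
  -- the image contains the subgroup of the letters
  have hrange : Lt E [1, 2, 3, 4, 5, 6, 7, 8, 9] ≤ σM.range := by
    rw [Lt, Subgroup.closure_le]
    rintro _ ⟨c, hc', rfl⟩
    have hc10 : c < 10 := by
      have hc'' : c ∈ [1, 2, 3, 4, 5, 6, 7, 8, 9] := hc'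
      simp only [List.mem_cons, List.not_mem_nil, or_false] at hc''
      omega
    have hmem : E3 c ∈ M := by
      apply Subgroup.subset_closure
      refine ⟨c, ?_, rfl⟩
      have hc'' : c ∈ [1, 2, 3, 4, 5, 6, 7, 8, 9] := hc'
      simp only [Set.mem_ofPred_eq, List.mem_cons, List.not_mem_nil, or_false] at hc'' ⊢
      omega
    refine ⟨⟨E3 c, hmem⟩, ?_⟩
    change σ (E3 c) = E c
    rw [hE3lt c hc10]
    exact h.hσ c hc10
  have hle := Nat.card_le_card_of_injective (Subgroup.inclusion hrange) (Subgroup.inclusion_injective hrange)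
  -- the kernel has at least three elements
  have hζM : ζ ∈ M := by
    apply Subgroup.subset_closure
    exact ⟨10, by simp, hE3_10⟩
  have hker : 3 ≤ Nat.card σM.ker := by
    let x : σM.ker := ⟨⟨ζ, hζM⟩, hzk⟩
    have hx3 : x ^ 3 = 1 := by
      apply Subtype.ext
      apply Subtype.ext
      exact hz3
    have hx1 : x ≠ 1 := by
      intro hx
      exact hne (congrArg (fun y : σM.ker => ((y : M) : Γ)) hx)
    have : Fact (Nat.Prime 3) := ⟨Nat.prime_three⟩
    have hord : orderOf x = 3 := orderOf_eq_prime hx3 hx1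
    have hd := orderOf_dvd_natCard x
    rw [hord] at hd
    exact Nat.le_of_dvd Nat.card_pos hd
  have hcardM : Nat.card σM.ker * Nat.card σM.range = Nat.card M := by
    have h1 := Subgroup.card_mul_index σM.ker
    rwa [Subgroup.index_ker] at h1
  have h1 := L_card
  have h2 : 3 * 9904359628800 ≤ Nat.card M := by
    rw [← hcardM]
    exact Nat.mul_le_mul hker (h1.trans hle)
  omega

/-- The word of the spider. -/
theorem zeta_one {X : ℕ → Γ} (hσ : IsStemExtension σ) (hp : (Nat.card σ.ker).Prime) (h : CoxLift σ E X) :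
    prodA X spiderW = 1 := by
  by_cases h3 : Nat.card σ.ker = 3
  · exact zeta_three hσ h
  · have hz3 := zeta_cube' hσ h
    have hzk : σ (prodA X spiderW) = 1 := by
      rw [map_prodA σ X E 10 h.hσ spiderW spider_lt, spiderE]
    have hzp := pow_card_ker _ hzk
    have hcop : Nat.gcd 3 (Nat.card σ.ker) = 1 :=
      (Nat.coprime_primes Nat.prime_three hp).2 (Ne.symm h3)
    have h1 := pow_gcd_eq_one.2 ⟨hz3, hzp⟩
    rwa [hcop, pow_one] at h1

/-- The case of odd order. -/
theorem false_odd {X : ℕ → Γ} (hσ : IsStemExtension σ) (hp : (Nat.card σ.ker).Prime)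
    (hodd : Nat.card σ.ker ≠ 2) (h : CoxLift σ E X) : False := by
  have hζ := zeta_one hσ hp h
  have hzk : σ (prodA X e7W) = 1 := by
    rw [map_prodA σ X E 10 h.hσ e7W e7_lt, e7E]
  have hz7 : prodA X e7W = 1 := by
    have h1 := runOK_spec (CoxLift.rel h) hC
    rw [one_pow, prodA_append] at h1
    have h2 : (prodA X e7W) ^ 2 = 1 := by rw [pow_two]; exact h1
    have hzp := pow_card_ker _ hzk
    have hcop : Nat.gcd 2 (Nat.card σ.ker) = 1 :=
      (Nat.coprime_primes Nat.prime_two hp).2 (Ne.symm hodd)
    have h3 := pow_gcd_eq_one.2 ⟨h2, hzp⟩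
    rwa [hcop, pow_one] at h3
  have hrels' : ∀ l ∈ rels, prodA X l = 1 := by
    have hchk : rels = Bound3.coxW ++ [spiderW, e7W] := by decide +kernel
    have hcx : Bound3.coxW.all isCox = true := by decide +kernel
    intro l hl
    rw [hchk] at hl
    simp only [List.mem_append, List.mem_cons, List.not_mem_nil, or_false] at hl
    rcases hl with hl | rfl | rfl
    · exact cox_one h.hsq h.hb h.hc (List.all_eq_true.1 hcx l hl)
    · exact hζ
    · exact hz7
  obtain ⟨ψ, hψ⟩ := exists_hom_of_letters valid hR X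
    (fun c hc => by
      have hinvc : K.inv c = c := by
        have hc' : c < 10 := hc
        interval_cases c <;> rfl
      rw [hinvc]
      exact (inv_eq_of_mul_eq_one_left (h.hsq c hc)).symm) hrels'
  have hsec : ∀ g, σ (ψ g) = g := by
    have h1 : σ.comp ψ = MonoidHom.id _ := by
      apply MonoidHom.eq_of_eqOn_top
      rw [← Cols.closure_E valid]
      apply MonoidHom.eqOn_closure
      rintro _ ⟨c, hc, rfl⟩
      simp only [MonoidHom.comp_apply, MonoidHom.id_apply]
      rw [hψ c hc]
      exact h.hσ c hc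
    intro g
    exact DFunLike.congr_fun h1 g
  have hone : ∀ z : σ.ker, z = 1 := fun z =>
    Subtype.ext (eq_one_of_section hσ ψ hsec z.2)
  have hsub : Subsingleton σ.ker := ⟨fun a b => by rw [hone a, hone b]⟩
  have h1 := Nat.card_of_subsingleton (1 : σ.ker)
  rw [h1] at hp
  exact Nat.not_prime_one hp

/-- The case of order two. -/
theorem false_two {X : ℕ → Γ} (hσ : IsStemExtension σ) (hp : (Nat.card σ.ker).Prime)
    (h2 : Nat.card σ.ker = 2) (h : CoxLift σ E X) : False := by
  have hζ := zeta_one hσ hp h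
  have hrels' : ∀ l ∈ BoundA.rels₀, prodA X l = 1 := by
    have hchk : BoundA.rels₀ = Bound3.coxW ++ [spiderW] := by decide +kernel
    have hcx : Bound3.coxW.all isCox = true := by decide +kernel
    intro l hl
    rw [hchk] at hl
    simp only [List.mem_append, List.mem_cons, List.not_mem_nil, or_false] at hl
    rcases hl with hl | rfl
    · exact cox_one h.hsq h.hb h.hc (List.all_eq_true.1 hcx l hl)
    · exact hζ
  obtain ⟨ψ, hψ⟩ := exists_hom_of_letters BoundA.valid₀ BoundA.hR₀ X
    (fun c hc => by
      have hinvc : K.inv c = c := by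
        have hc' : c < 10 := hc
        interval_cases c <;> rfl
      rw [hinvc]
      exact (inv_eq_of_mul_eq_one_left (h.hsq c hc)).symm) hrels'
  obtain ⟨π, hπ⟩ := exists_hom_of_letters BoundA.valid₀ BoundA.hR₀ (K.E Rel)
    (fun c hc => (Cols.E_inv valid c hc).2)
    (fun l hl => rel_prodA_one valid hrels l (by
      have hchk : ∀ l ∈ BoundA.rels₀, l ∈ rels := by decide +kernel
      exact hchk l hl))
  have hcomp : σ.comp ψ = π := by
    apply MonoidHom.eq_of_eqOn_top
    rw [← Cols.closure_E BoundA.valid₀]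
    apply MonoidHom.eqOn_closure
    rintro _ ⟨c, hc, rfl⟩
    simp only [MonoidHom.comp_apply]
    rw [hψ c hc, hπ c hc]
    exact h.hσ c hc
  have hπs : Function.Surjective π := by
    rw [← MonoidHom.range_eq_top, eq_top_iff, ← Cols.closure_E valid, Subgroup.closure_le]
    rintro _ ⟨c, hc, rfl⟩
    exact ⟨_, hπ c hc⟩
  have hs : ∀ g : Γ, ∃ q, σ (ψ q) = σ g := by
    intro g
    obtain ⟨q, hq⟩ := hπs (σ g)
    exact ⟨q, by rw [← hq, ← hcomp]; rfl⟩
  have hfin := BoundA.finite
  have hcardΓ : Nat.card BoundA.A ≤ Nat.card Γ := by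
    have h1 := Subgroup.card_mul_index σ.ker
    rw [Subgroup.index_ker, MonoidHom.range_eq_top.2 hσ.1, Subgroup.card_top, h2, hcard] at h1
    rw [← h1]
    exact BoundA.bound.2.trans (by norm_num)
  obtain ⟨ε, hε⟩ := BoundA.exists_sign
  refine false_of_char hσ perfect ψ hs hcardΓ ε (a := K.E BoundA.R₀ 0) ?_
  rw [hε 0 (by decide)]
  decide

/-- There is no stem extension with kernel of prime order. -/
theorem no_prime (hσ : IsStemExtension σ) : ¬ (Nat.card σ.ker).Prime := by
  intro hp
  obtain ⟨X, hX⟩ := exists_lift hσ hp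
  by_cases h2 : Nat.card σ.ker = 2
  · exact false_two hσ hp h2 hX
  · exact false_odd hσ hp h2 hX

end main

/-- All stem extensions are trivial. -/
theorem card_ker_one (Γ : Type u) [Group Γ] [Finite Γ] (σ : Γ →* PresentedGroup Rel) (hσ : IsStemExtension σ) :
    Nat.card σ.ker = 1 := by
  have hfin : Finite (PresentedGroup Rel) := Nat.finite_of_card_ne_zero (by rw [hcard]; norm_num)
  exact ker_one_of_prime (fun Γ _ _ σ hσ => no_prime hσ) _ Γ σ hσ rfl

end Cfsg.Agent.Lib.Schur.Fi23c.Final
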