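import Cfsg.Agent.Lib.Schur.CoxRew

/-!
# Stem extensions of a group generated by letters of a Coxeter diagram

The diagram is a tree on ten nodes.  Lifts of the letters to a stem extension with kernel of prime
order can be chosen so that all the Coxeter relations hold.
-/

set_option autoImplicit false

namespace Cfsg.Agent.Lib.Schur.Fi23c.Logic

open Cfsg Cfsg.Agent.Lib.Schur.CoxRew Subgroup
open Cfsg.Agent.Lib.TC.Core (prodA prodA_nil prodA_cons prodA_append)
open Cfsg.Agent.Lib.TC.Main (map_prodA)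

/-- The edges of the diagram, in a bit mask. -/
def ADJ : ℕ := 317541367225678240465817703426

/-- Adjacency in the diagram. -/
def adj (x y : ℕ) : Bool := Nat.beq (Nat.land (Nat.shiftRight ADJ (x * 10 + y)) 1) 1

/-- The edges of the diagram. -/
def edgesL : List (ℕ × ℕ) := [(0, 1), (1, 2), (2, 3), (3, 4), (3, 8), (4, 5), (5, 6), (6, 7), (8, 9)]

theorem adj_symm : ∀ x, x < 10 → ∀ y, y < 10 → adj x y = adj y x := by decide

theorem adj_edges : ∀ x, x < 10 → ∀ y, y < 10 → adj x y = true → (x, y) ∈ edgesL ∨ (y, x) ∈ edgesL := by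
  intro x hx y hy
  interval_cases x <;> interval_cases y <;> decide

section main

variable {Γ G : Type*} [Group Γ] [Group G] {σ : Γ →* G}

/-- The relations of the letters in the base. -/
structure EFacts (E : ℕ → G) : Prop where
  hsq : ∀ c, c < 10 → E c * E c = 1
  hb : ∀ x y, x < 10 → y < 10 → adj x y = true → E x * E y * E x = E y * E x * E y
  hc : ∀ x y, x < 10 → y < 10 → x ≠ y → adj x y = false → E x * E y = E y * E x

/-- Lifts satisfying the Coxeter relations. -/
structure CoxLift (σ : Γ →* G) (E : ℕ → G) (X : ℕ → Γ) : Prop where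
  hσ : ∀ c, c < 10 → σ (X c) = E c
  hsq : ∀ c, c < 10 → X c * X c = 1
  hb : ∀ x y, x < 10 → y < 10 → adj x y = true → X x * X y * X x = X y * X x * X y
  hc : ∀ x y, x < 10 → y < 10 → x ≠ y → adj x y = false → X x * X y = X y * X x

/-- The case of odd exponent. -/
theorem coxLift_odd (hσ : IsStemExtension σ) {m : ℕ} (hpow : ∀ z, σ z = 1 → z ^ (2 * m + 1) = 1)
    {E : ℕ → G} (hE : EFacts E) : ∃ X, CoxLift σ E X := by
  have h : ∀ c, ∃ a, c < 10 → σ a = E c ∧ a * a = 1 := by
    intro c
    by_cases hc : c < 10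
    · obtain ⟨g, hg⟩ := hσ.1 (E c)
      obtain ⟨a, ha1, ha2⟩ := exists_invol hσ hpow (g := g) (by rw [map_mul, hg, hE.hsq c hc])
      exact ⟨a, fun _ => ⟨ha1.trans hg, ha2⟩⟩
    · exact ⟨1, fun h => absurd h hc⟩
  choose X hX using h
  refine ⟨X, ⟨fun c hc => (hX c hc).1, fun c hc => (hX c hc).2, ?_, ?_⟩⟩
  · intro x y hx hy ha
    have h1 := (hX x hx).2
    have h2 := (hX y hy).2
    apply eq_of_sq hσ hpow
    · calc X x * X y * X x * (X x * X y * X x) = X x * X y * (X x * X x) * X y * X x := by group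
        _ = X x * (X y * X y) * X x := by rw [h1]; group
        _ = 1 := by rw [h2, mul_one, h1]
    · calc X y * X x * X y * (X y * X x * X y) = X y * X x * (X y * X y) * X x * X y := by group
        _ = X y * (X x * X x) * X y := by rw [h2]; group
        _ = 1 := by rw [h1, mul_one, h2]
    · simp only [map_mul, (hX x hx).1, (hX y hy).1]
      exact hE.hb x y hx hy ha
  · intro x y hx hy hne ha
    have h1 := (hX x hx).2
    have h2 := (hX y hy).2
    have h3 : X x * X y * X x = X y := by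
      apply eq_of_sq hσ hpow
      · calc X x * X y * X x * (X x * X y * X x) = X x * X y * (X x * X x) * X y * X x := by group
          _ = X x * (X y * X y) * X x := by rw [h1]; group
          _ = 1 := by rw [h2, mul_one, h1]
      · exact h2
      · simp only [map_mul, (hX x hx).1, (hX y hy).1]
        rw [hE.hc x y hx hy hne ha, mul_assoc, hE.hsq x hx, mul_one]
    calc X x * X y = X x * X y * (X x * X x) := by rw [h1, mul_one]
      _ = (X x * X y * X x) * X x := by group
      _ = X y * X x := by rw [h3]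

/-- Commuting modulo the kernel. -/
theorem comm_of_mod (hσ : IsStemExtension σ) {a b a' b' : Γ} (h1 : σ a = σ a') (h2 : σ b = σ b')
    (h : a * b = b * a) : a' * b' = b' * a' := by
  have hz1 : σ (a⁻¹ * a') = 1 := by simp [h1]
  have hz2 : σ (b⁻¹ * b') = 1 := by simp [h2]
  set z1 := a⁻¹ * a' with hz1d
  set z2 := b⁻¹ * b' with hz2d
  have ha : a' = a * z1 := by simp [hz1d]
  have hb : b' = b * z2 := by simp [hz2d]
  have c1 := central_of hσ hz1
  have c2 := central_of hσ hz2
  rw [ha, hb]
  calc a * z1 * (b * z2) = a * (z1 * b) * z2 := by group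
    _ = a * b * z1 * z2 := by rw [c1 b]; group
    _ = b * a * z1 * z2 := by rw [h]
    _ = b * a * (z1 * z2) := by group
    _ = b * a * (z2 * z1) := by rw [c1 z2]
    _ = b * (a * z2) * z1 := by group
    _ = b * (z2 * a) * z1 := by rw [c2 a]
    _ = b * z2 * (a * z1) := by group

/-- The letters of the diagram `E₇`. -/
def E7L : List ℕ := [0, 1, 2, 3, 4, 5, 8]

theorem braid_lifts (hσ : IsStemExtension σ) {E : ℕ → G} (hE : EFacts E) :
    ∃ X : ℕ → Γ, (∀ c, c < 10 → σ (X c) = E c) ∧ ∀ e ∈ edgesL, X e.1 * X e.2 * X e.1 = X e.2 * X e.1 * X e.2 := by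
  have hstep : ∀ {a : Γ} {x y : ℕ}, x < 10 → y < 10 → adj x y = true → σ a = E x →
      ∃ b, σ b = E y ∧ a * b * a = b * a * b := by
    intro a x y hx hy ha h1
    obtain ⟨g, hg⟩ := hσ.1 (E y)
    obtain ⟨b, hb1, hb2⟩ := fix_braid hσ (a := a) (b := g) (by
      simp only [map_mul, h1, hg]
      exact hE.hb x y hx hy ha)
    exact ⟨b, hb1.trans hg, hb2⟩
  obtain ⟨X3, h3⟩ := hσ.1 (E 3)
  obtain ⟨X2, h2, b32⟩ := hstep (a := X3) (x := 3) (y := 2) (by norm_num) (by norm_num) (by decide) h3
  obtain ⟨X1, h1, b21⟩ := hstep (a := X2) (x := 2) (y := 1) (by norm_num) (by norm_num) (by decide) h2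
  obtain ⟨X0, h0, b10⟩ := hstep (a := X1) (x := 1) (y := 0) (by norm_num) (by norm_num) (by decide) h1
  obtain ⟨X4, h4, b34⟩ := hstep (a := X3) (x := 3) (y := 4) (by norm_num) (by norm_num) (by decide) h3
  obtain ⟨X5, h5, b45⟩ := hstep (a := X4) (x := 4) (y := 5) (by norm_num) (by norm_num) (by decide) h4
  obtain ⟨X6, h6, b56⟩ := hstep (a := X5) (x := 5) (y := 6) (by norm_num) (by norm_num) (by decide) h5
  obtain ⟨X7, h7, b67⟩ := hstep (a := X6) (x := 6) (y := 7) (by norm_num) (by norm_num) (by decide) h6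
  obtain ⟨X8, h8, b38⟩ := hstep (a := X3) (x := 3) (y := 8) (by norm_num) (by norm_num) (by decide) h3
  obtain ⟨X9, h9, b89⟩ := hstep (a := X8) (x := 8) (y := 9) (by norm_num) (by norm_num) (by decide) h8
  refine ⟨fun c => [X0, X1, X2, X3, X4, X5, X6, X7, X8, X9].getD c 1, ?_, ?_⟩
  · intro c hc
    interval_cases c
    · exact h0
    · exact h1
    · exact h2
    · exact h3
    · exact h4
    · exact h5
    · exact h6
    · exact h7
    · exact h8
    · exact h9
  · intro e he
    simp only [edgesL, List.mem_cons, List.not_mem_nil, or_false] at he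
    rcases he with rfl | rfl | rfl | rfl | rfl | rfl | rfl | rfl | rfl
    · exact b10.symm
    · exact b21.symm
    · exact b32.symm
    · exact b34
    · exact b38
    · exact b45
    · exact b56
    · exact b67
    · exact b89

/-- The case of a kernel of exponent two. -/
theorem coxLift_two (hσ : IsStemExtension σ) (hZ : ∀ z, σ z = 1 → z * z = 1)
    {E : ℕ → G} (hE : EFacts E)
    (e7 : List ℕ) (he7 : ∀ z ∈ e7, z ∈ E7L) (he7k : ∀ z ∈ e7, z < 10) (he7E : prodA E e7 = 1) (he7len : e7.length = 63)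
    (movesC : List (ℕ × ℕ)) (hC : runOK 10 adj movesC (e7 ++ e7) 63 = true)
    (tw : List ℕ) (htw : ∀ z ∈ tw, z < 10)
    (hT : ∀ x ∈ E7L, prodA E tw * E x = E x * prodA E tw)
    (hpair : ∀ x y, x < 10 → y < 10 → x < y → adj x y = false → ∃ g : List ℕ, (∀ z ∈ g, z < 10) ∧
      prodA E g * prodA E tw * (prodA E g)⁻¹ = E x ∧ prodA E g * E 0 * (prodA E g)⁻¹ = E y) :
    ∃ X, CoxLift σ E X := by
  obtain ⟨X, hX, hbe⟩ := braid_lifts hσ hE
  have hb : ∀ x y, x < 10 → y < 10 → adj x y = true → X x * X y * X x = X y * X x * X y := by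
    intro x y hx hy ha
    rcases adj_edges x hx y hy ha with h | h
    · exact hbe _ h
    · exact (hbe _ h).symm
  have hmap : ∀ l : List ℕ, (∀ z ∈ l, z < 10) → σ (prodA X l) = prodA E l := fun l hl =>
    map_prodA σ X E 10 hX l hl
  -- squares
  have hker : ∀ c, c < 10 → σ (X c * X c) = 1 := by
    intro c hc
    rw [map_mul, hX c hc, hE.hsq c hc]
  have s2 := sq_eq_of_braid hσ (hb 3 2 (by norm_num) (by norm_num) (by decide)) (hker 3 (by norm_num))
  have s1 := sq_eq_of_braid hσ (hb 2 1 (by norm_num) (by norm_num) (by decide)) (hker 2 (by norm_num))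
  have s0 := sq_eq_of_braid hσ (hb 1 0 (by norm_num) (by norm_num) (by decide)) (hker 1 (by norm_num))
  have s4 := sq_eq_of_braid hσ (hb 3 4 (by norm_num) (by norm_num) (by decide)) (hker 3 (by norm_num))
  have s5 := sq_eq_of_braid hσ (hb 4 5 (by norm_num) (by norm_num) (by decide)) (hker 4 (by norm_num))
  have s6 := sq_eq_of_braid hσ (hb 5 6 (by norm_num) (by norm_num) (by decide)) (hker 5 (by norm_num))
  have s7 := sq_eq_of_braid hσ (hb 6 7 (by norm_num) (by norm_num) (by decide)) (hker 6 (by norm_num))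
  have s8 := sq_eq_of_braid hσ (hb 3 8 (by norm_num) (by norm_num) (by decide)) (hker 3 (by norm_num))
  have s9 := sq_eq_of_braid hσ (hb 8 9 (by norm_num) (by norm_num) (by decide)) (hker 8 (by norm_num))
  set u := X 3 * X 3 with hu
  have hu1 : σ u = 1 := hker 3 (by norm_num)
  have hsqX : ∀ c, c < 10 → X c * X c = u := by
    intro c hc
    interval_cases c
    · rw [s0, s1, s2]
    · rw [s1, s2]
    · exact s2
    · rfl
    · exact s4
    · rw [s5, s4]
    · rw [s6, s5, s4]
    · rw [s7, s6, s5, s4]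
    · exact s8
    · rw [s9, s8]
  -- the element `t`
  set T := prodA X tw with hTd
  have hσT : σ T = prodA E tw := hmap tw htw
  let k : ℕ → Γ := fun x => T * X x * T⁻¹ * (X x)⁻¹
  have hk : ∀ x, T * X x * T⁻¹ = k x * X x := fun x => by simp [k]
  have hk1 : ∀ x ∈ E7L, σ (k x) = 1 := by
    intro x hx
    have hx10 : x < 10 := by
      simp only [E7L, List.mem_cons, List.not_mem_nil, or_false] at hx
      omega
    simp only [k, map_mul, map_inv, hσT, hX x hx10]
    rw [hT x hx]
    group
  have hmem : ∀ x, x ∈ E7L → σ (k x) = 1 := hk1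
  have e01 := kappa_eq_of_braid hσ (hb 0 1 (by norm_num) (by norm_num) (by decide))
    (hmem 0 (by decide)) (hmem 1 (by decide)) (hk 0) (hk 1)
  have e12 := kappa_eq_of_braid hσ (hb 1 2 (by norm_num) (by norm_num) (by decide))
    (hmem 1 (by decide)) (hmem 2 (by decide)) (hk 1) (hk 2)
  have e23 := kappa_eq_of_braid hσ (hb 2 3 (by norm_num) (by norm_num) (by decide))
    (hmem 2 (by decide)) (hmem 3 (by decide)) (hk 2) (hk 3)
  have e34 := kappa_eq_of_braid hσ (hb 3 4 (by norm_num) (by norm_num) (by decide))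
    (hmem 3 (by decide)) (hmem 4 (by decide)) (hk 3) (hk 4)
  have e45 := kappa_eq_of_braid hσ (hb 4 5 (by norm_num) (by norm_num) (by decide))
    (hmem 4 (by decide)) (hmem 5 (by decide)) (hk 4) (hk 5)
  have e38 := kappa_eq_of_braid hσ (hb 3 8 (by norm_num) (by norm_num) (by decide))
    (hmem 3 (by decide)) (hmem 8 (by decide)) (hk 3) (hk 8)
  set κ := k 0 with hκ
  have hκ1 : σ κ = 1 := hmem 0 (by decide)
  have hall : ∀ x ∈ E7L, T * X x * T⁻¹ = κ * X x := by
    intro x hx
    simp only [E7L, List.mem_cons, List.not_mem_nil, or_false] at hx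
    rcases hx with rfl | rfl | rfl | rfl | rfl | rfl | rfl
    · exact hk 0
    · rw [hk 1, ← e01]
    · rw [hk 2, ← e12, ← e01]
    · rw [hk 3, ← e23, ← e12, ← e01]
    · rw [hk 4, ← e34, ← e23, ← e12, ← e01]
    · rw [hk 5, ← e45, ← e34, ← e23, ← e12, ← e01]
    · rw [hk 8, ← e38, ← e23, ← e12, ← e01]
  have hconj : ∀ l : List ℕ, (∀ z ∈ l, z ∈ E7L) → T * prodA X l * T⁻¹ = κ ^ l.length * prodA X l := by
    intro l hl
    induction l with
    | nil => simp
    | cons z l ih =>
      rw [prodA_cons, List.length_cons]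
      calc T * (prodA X l * X z) * T⁻¹ = (T * prodA X l * T⁻¹) * (T * X z * T⁻¹) := by group
        _ = κ ^ l.length * prodA X l * (κ * X z) := by
            rw [ih (fun y hy => hl y (by simp [hy])), hall z (hl z (by simp))]
        _ = κ ^ l.length * (prodA X l * κ) * X z := by group
        _ = κ ^ l.length * (κ * prodA X l) * X z := by rw [← central_of hσ hκ1]
        _ = κ ^ (l.length + 1) * (prodA X l * X z) := by rw [pow_succ]; group
  have hz2 : σ (prodA X e7) = 1 := by rw [hmap e7 he7k, he7E]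
  have hκ63 : κ ^ 63 = 1 := by
    have h1 := hconj e7 he7
    rw [he7len, mul_inv_eq_iff_eq_mul] at h1
    have h2 : T * prodA X e7 = prodA X e7 * T := (central_of hσ hz2 T).symm
    rw [h2, mul_assoc] at h1
    exact (mul_eq_right.1 h1.symm)
  have hκκ := hZ κ hκ1
  have hκ2 : κ = 1 := by
    have h1 : κ ^ 63 = κ := by
      rw [show (63 : ℕ) = 2 * 31 + 1 by norm_num, pow_succ, pow_mul, pow_two, hκκ, one_pow, one_mul]
    rw [← h1, hκ63]
  have hT0 : T * X 0 = X 0 * T := by
    have h1 := hall 0 (by decide)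
    rw [hκ2, one_mul, mul_inv_eq_iff_eq_mul] at h1
    exact h1
  -- the commuting pairs
  have hc' : ∀ x y, x < 10 → y < 10 → x < y → adj x y = false → X x * X y = X y * X x := by
    intro x y hx hy hne ha
    obtain ⟨g, hg, h1, h2⟩ := hpair x y hx hy hne ha
    set gg := prodA X g with hgg
    have hσg : σ gg = prodA E g := hmap g hg
    refine comm_of_mod hσ (a := gg * T * gg⁻¹) (b := gg * X 0 * gg⁻¹) ?_ ?_ ?_
    · simp only [map_mul, map_inv, hσg, hσT, hX x hx, h1]
    · simp only [map_mul, map_inv, hσg, hX 0 (by norm_num), hX y hy, h2]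
    · calc gg * T * gg⁻¹ * (gg * X 0 * gg⁻¹) = gg * (T * X 0) * gg⁻¹ := by group
        _ = gg * (X 0 * T) * gg⁻¹ := by rw [hT0]
        _ = gg * X 0 * gg⁻¹ * (gg * T * gg⁻¹) := by group
  have hc : ∀ x y, x < 10 → y < 10 → x ≠ y → adj x y = false → X x * X y = X y * X x := by
    intro x y hx hy hne ha
    rcases lt_or_gt_of_ne hne with h | h
    · exact hc' x y hx hy h ha
    · exact (hc' y x hy hx h ((adj_symm y hy x hx).trans ha)).symm
  -- the square
  have hR : CoxRew.Rel 10 adj X u := ⟨fun g => (central_of hσ hu1 g).symm, hsqX, hb, hc,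
    fun x y hx hy => adj_symm x hx y hy⟩
  have h63 := runOK_spec hR hC
  rw [prodA_append] at h63
  have hzz := hZ _ hz2
  rw [hzz] at h63
  have huu := hZ u hu1
  have hu2 : u = 1 := by
    have h1 : u ^ 63 = u := by
      rw [show (63 : ℕ) = 2 * 31 + 1 by norm_num, pow_succ, pow_mul, pow_two, huu, one_pow, one_mul]
    rw [← h1, ← h63]
  exact ⟨X, hX, fun c hc => by rw [hsqX c hc, hu2], hb, hc⟩

end main

end Cfsg.Agent.Lib.Schur.Fi23c.Logic
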